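import Cfsg.Agent.H480.Ore.Fi22Out

/-!
# The 2-central involutions of `Fi22` (helper480; S4173, row B, piece B3)

* `pair_of_dvd` : an involution of `Fi22` whose centralizer has order divisible by `2^17` is a product of two commuting
  transpositions.
-/

set_option autoImplicit false

namespace Cfsg.Agent.H480.TC

open Subgroup Cfsg
open Cfsg.Agent.LThreeFi22 Cfsg.Agent.R01.FiFusion Cfsg.Agent.R01.FiFacts
open Cfsg.Agent.H647.SpF.Fi22 (ctx0 orbit_le card_cent_tri)
open Cfsg.Agent.OddHalf.NI3.Ex.FiRow.Base (T)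

/-- the centralizer of a product of three commuting transpositions -/
theorem tri_card {a b c : Spor.Fi22} (h1 : Tri Cfsg.Agent.R08.AutT.T a b c) :
    Nat.card ↥(centralizer ({a * b * c} : Set Spor.Fi22)) ∣ 6 * (2 * 147456) := by
  have C := ctx0
  have := C.finite
  have Fa := Cfsg.Agent.R08.AutT.tFacts
  obtain ⟨a', b', c', H⟩ := Fa.hex a b c h1
  have key : ∀ g ∈ centralizer ({a * b * c} : Set Spor.Fi22),
      g * a * g⁻¹ ∈ ({a, b, c, a', b', c'} : Set Spor.Fi22) := by
    intro g hg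
    have hg' := mem_centralizer_singleton_iff.1 hg
    by_contra hcon
    simp only [Set.mem_insert_iff, Set.mem_singleton_iff, not_or] at hcon
    obtain ⟨n1, n2, n3, n4, n5, n6⟩ := hcon
    have tri := fun (t : Spor.Fi22) (htT : t ∈ Cfsg.Agent.R08.AutT.T) =>
      Cfsg.Agent.OddHalf.D4.Spor.Fi22.comm_tri Cfsg.Agent.StdFi22.MainFi22.bas h1 htT
    have aw : a * (a * b * c) = a * b * c * a := by
      calc a * (a * b * c) = a * (a * (b * c)) := by group
        _ = a * (a * (c * b)) := by rw [h1.cyw]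
        _ = a * ((a * c) * b) := by group
        _ = a * ((c * a) * b) := by rw [h1.cxw]
        _ = (a * c) * (a * b) := by group
        _ = (a * c) * (b * a) := by rw [h1.cxy]
        _ = a * (c * b) * a := by group
        _ = a * (b * c) * a := by rw [h1.cyw]
        _ = _ := by group
    have gc : g⁻¹ * (a * b * c) = a * b * c * g⁻¹ := by
      calc g⁻¹ * (a * b * c) = g⁻¹ * (a * b * c * g) * g⁻¹ := by group
        _ = g⁻¹ * (g * (a * b * c)) * g⁻¹ := by rw [hg']
        _ = _ := by group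
    have xw : g * a * g⁻¹ * (a * b * c) = a * b * c * (g * a * g⁻¹) := by
      calc g * a * g⁻¹ * (a * b * c) = g * a * (g⁻¹ * (a * b * c)) := by group
        _ = g * (a * (a * b * c)) * g⁻¹ := by rw [gc]; group
        _ = g * (a * b * c) * a * g⁻¹ := by rw [aw]; group
        _ = _ := by rw [hg']; group
    have xT : g * a * g⁻¹ ∈ Cfsg.Agent.R08.AutT.T := C.conj a h1.mx g
    obtain ⟨xa, xb, xc⟩ := tri _ xT xw
    obtain ⟨t, htT, ta, tb, tc, tn⟩ := Cfsg.Agent.OddHalf.D4.Spor.Fi22.exists_ncomm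
      Cfsg.Agent.StdFi22.MainFi22.bas H xT xa xb xc n1 n2 n3 n4 n5 n6
    apply tn
    have tw : t * (a * b * c) = a * b * c * t := by
      calc t * (a * b * c) = t * a * b * c := by group
        _ = a * (t * b) * c := by rw [ta]; group
        _ = a * b * (t * c) := by rw [tb]; group
        _ = _ := by rw [tc]; group
    have k1 : g⁻¹ * t * g ∈ Cfsg.Agent.R08.AutT.T := by
      have := C.conj t htT g⁻¹
      rwa [inv_inv] at this
    have k2 : g⁻¹ * t * g * (a * b * c) = a * b * c * (g⁻¹ * t * g) := by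
      calc g⁻¹ * t * g * (a * b * c) = g⁻¹ * t * (g * (a * b * c)) := by group
        _ = g⁻¹ * (t * (a * b * c)) * g := by rw [hg']; group
        _ = (g⁻¹ * (a * b * c)) * t * g := by rw [tw]; group
        _ = _ := by rw [gc]; group
    have k3 := (tri _ k1 k2).1
    calc t * (g * a * g⁻¹) = g * ((g⁻¹ * t * g) * a) * g⁻¹ := by group
      _ = g * (a * (g⁻¹ * t * g)) * g⁻¹ := by rw [k3]
      _ = _ := by group
  -- the six products are equal
  have hH : a' * b' * c' = a * b * c := by
    have e1 : a * b * c * (a * b * c) = 1 := by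
      calc a * b * c * (a * b * c) = a * b * (c * a) * b * c := by group
        _ = a * (b * a) * (c * b) * c := by rw [← h1.cxw]; group
        _ = a * (a * b) * (b * c) * c := by rw [← h1.cxy, ← h1.cyw]
        _ = (a * a) * (b * b) * (c * c) := by group
        _ = 1 := by rw [Fa.sq a h1.mx, Fa.sq b h1.my, Fa.sq c h1.mw, one_mul, one_mul]
    exact mul_left_cancel (H.prod.trans e1.symm)
  -- the orbit of `a`
  have orb : ∀ x, x ∈ ({a, b, c, a', b', c'} : Set Spor.Fi22) ↔
      ∃ h ∈ centralizer ({a * b * c} : Set Spor.Fi22), x = h * a * h⁻¹ := by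
    have tr : ∀ x y w : Spor.Fi22, Tri Cfsg.Agent.R08.AutT.T x y w → x * y * w = a * b * c →
        ∃ h ∈ centralizer ({a * b * c} : Set Spor.Fi22), x = h * a * h⁻¹ := by
      intro x y w ht e
      obtain ⟨g, g1, g2, g3⟩ := Fa.tri a b c x y w h1 ht
      refine ⟨g, mem_centralizer_singleton_iff.2 (mul_inv_eq_iff_eq_mul.1 ?_), g1.symm⟩
      calc g * (a * b * c) * g⁻¹ = (g * a * g⁻¹) * (g * b * g⁻¹) * (g * c * g⁻¹) := by group
        _ = a * b * c := by rw [g1, g2, g3, e]
    have rot : ∀ x y w : Spor.Fi22, Tri Cfsg.Agent.R08.AutT.T x y w →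
        Tri Cfsg.Agent.R08.AutT.T y w x ∧ y * w * x = x * y * w := by
      intro x y w h
      refine ⟨⟨h.my, h.mw, h.mx, h.yw, h.xy.symm, h.xw.symm, h.cyw, h.cxy.symm, h.cxw.symm⟩, ?_⟩
      calc y * w * x = y * (x * w) := by rw [h.cxw]; group
        _ = (x * y) * w := by rw [h.cxy]; group
    intro x
    constructor
    · rintro (rfl | rfl | rfl | rfl | rfl | rfl)
      · exact ⟨1, one_mem _, by group⟩
      · exact tr _ _ _ (rot _ _ _ h1).1 (rot _ _ _ h1).2
      · exact tr _ _ _ (rot _ _ _ (rot _ _ _ h1).1).1 ((rot _ _ _ (rot _ _ _ h1).1).2.trans (rot _ _ _ h1).2)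
      · exact tr _ _ _ H.t' hH
      · exact tr _ _ _ (rot _ _ _ H.t').1 ((rot _ _ _ H.t').2.trans hH)
      · exact tr _ _ _ (rot _ _ _ (rot _ _ _ H.t').1).1
          (((rot _ _ _ (rot _ _ _ H.t').1).2.trans (rot _ _ _ H.t').2).trans hH)
    · rintro ⟨h, hh, rfl⟩
      exact key h hh
  have hc := orbit_card (centralizer ({a * b * c} : Set Spor.Fi22)) a orb
  have h6 : ({a, b, c, a', b', c'} : Set Spor.Fi22).ncard = 6 := by
    rw [Set.ncard_insert_of_notMem, Set.ncard_insert_of_notMem, Set.ncard_insert_of_notMem,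
      Set.ncard_insert_of_notMem, Set.ncard_pair H.t'.yw]
    · simp only [Set.mem_insert_iff, Set.mem_singleton_iff, not_or]
      exact ⟨H.t'.xy, H.t'.xw⟩
    · simp only [Set.mem_insert_iff, Set.mem_singleton_iff, not_or]
      exact ⟨H.ca, H.cb, H.cc⟩
    · simp only [Set.mem_insert_iff, Set.mem_singleton_iff, not_or]
      exact ⟨h1.yw, H.ba, H.bb, H.bc⟩
    · simp only [Set.mem_insert_iff, Set.mem_singleton_iff, not_or]
      exact ⟨h1.xy, h1.xw, H.aa, H.ab, H.ac⟩
  rw [h6] at hc
  -- the second step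
  have key2 : ∀ g ∈ centralizer ({a * b * c} : Set Spor.Fi22) ⊓ centralizer ({a} : Set Spor.Fi22),
      g * b * g⁻¹ ∈ ({b, c} : Set Spor.Fi22) := by
    rintro g ⟨hg, hga⟩
    have hg' := mem_centralizer_singleton_iff.1 hg
    have hga' := mem_centralizer_singleton_iff.1 hga
    have h2 : g * (b * c) = b * c * g := by
      have h3 : a * (g * (b * c)) = a * (b * c * g) := by
        calc a * (g * (b * c)) = (g * a) * (b * c) := by rw [hga']; group
          _ = g * (a * b * c) := by group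
          _ = _ := by rw [hg']; group
      exact mul_left_cancel h3
    rcases C.cz b h1.my c h1.mw h1.yw h1.cyw g h2 with ⟨h, -⟩ | ⟨h, -⟩
    · exact Or.inl (mul_inv_eq_iff_eq_mul.2 h)
    · exact Or.inr h
  obtain ⟨n', hn', hc'⟩ := orbit_le (centralizer ({a * b * c} : Set Spor.Fi22) ⊓ centralizer ({a} : Set Spor.Fi22)) b
    (N := 2) ((Set.ncard_insert_le _ _).trans (by rw [Set.ncard_singleton])) key2
  have heq : Nat.card ↥(centralizer ({a * b * c} : Set Spor.Fi22) ⊓ centralizer ({a} : Set Spor.Fi22) ⊓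
      centralizer ({b} : Set Spor.Fi22)) = 147456 := by
    rw [← card_cent_tri C Fa h1]
    congr 2
    ext g
    constructor
    · rintro ⟨⟨hg, hga⟩, hgb⟩
      refine ⟨⟨hga, hgb⟩, mem_centralizer_singleton_iff.2 ?_⟩
      have hg' := mem_centralizer_singleton_iff.1 hg
      have hga' := mem_centralizer_singleton_iff.1 hga
      have hgb' := mem_centralizer_singleton_iff.1 hgb
      have h3 : a * b * (g * c) = a * b * (c * g) := by
        calc a * b * (g * c) = a * (b * g) * c := by group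
          _ = (a * g) * b * c := by rw [← hgb']; group
          _ = g * (a * b * c) := by rw [← hga']; group
          _ = _ := by rw [hg']; group
      exact mul_left_cancel h3
    · rintro ⟨⟨hga, hgb⟩, hgc⟩
      have hga' : Commute g a := mem_centralizer_singleton_iff.1 hga
      have hgb' : Commute g b := mem_centralizer_singleton_iff.1 hgb
      have hgc' : Commute g c := mem_centralizer_singleton_iff.1 hgc
      exact ⟨⟨mem_centralizer_singleton_iff.2 ((hga'.mul_right hgb').mul_right hgc').eq, hga⟩, hgb⟩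
  rw [heq] at hc'
  have hn0 : n' ∣ 2 := by
    have : n' ≠ 0 := by
      rintro rfl
      have h3 : 0 < Nat.card ↥(centralizer ({a * b * c} : Set Spor.Fi22) ⊓ centralizer ({a} : Set Spor.Fi22)) :=
        Nat.card_pos
      omega
    have : n' = 1 ∨ n' = 2 := by omega
    rcases this with rfl | rfl <;> norm_num
  rw [← hc, ← hc']
  exact mul_dvd_mul_left 6 (mul_dvd_mul_right hn0 _)

/-- **2-central involutions** -/
theorem pair_of_dvd {w : Spor.Fi22} (hw : w * w = 1) (hw1 : w ≠ 1)
    (hd : 2 ^ 17 ∣ Nat.card ↥(centralizer ({w} : Set Spor.Fi22))) :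
    ∃ a ∈ Cfsg.Agent.R08.AutT.T, ∃ b ∈ Cfsg.Agent.R08.AutT.T, a ≠ b ∧ a * b = b * a ∧ w = a * b := by
  have C := ctx0
  rcases Cfsg.Agent.OddHalf.D4.Spor.Fi22.inv_cases hw hw1 with
    h1 | ⟨a, ha, b, hb, hab, cab, rfl⟩ | ⟨a, b, c, h1, rfl⟩
  · exfalso
    rw [C.card_cent h1] at hd
    norm_num at hd
  · exact ⟨a, ha, b, hb, hab, cab, rfl⟩
  · exfalso
    have h2 := hd.trans (tri_card h1)
    norm_num at h2

/-- two such involutions are conjugate -/
theorem conj_pairs {a b a' b' : Spor.Fi22} (ha : a ∈ Cfsg.Agent.R08.AutT.T) (hb : b ∈ Cfsg.Agent.R08.AutT.T)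
    (hne : a ≠ b) (hab : a * b = b * a) (ha' : a' ∈ Cfsg.Agent.R08.AutT.T) (hb' : b' ∈ Cfsg.Agent.R08.AutT.T)
    (hne' : a' ≠ b') (hab' : a' * b' = b' * a') : ∃ g : Spor.Fi22, g * (a * b) * g⁻¹ = a' * b' := by
  obtain ⟨g, hg1, hg2⟩ := ctx0.transC a ha b hb a' ha' b' hb' hne hne' hab hab'
  exact ⟨g, by rw [← hg1, ← hg2]; group⟩

end Cfsg.Agent.H480.TC
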